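import Cfsg.Agent.Lib.Helper91.MinSp.LocBase

set_option autoImplicit false
set_option linter.unusedSectionVars false

/-! # MinSp farm (S2141), piece INV -/

namespace Cfsg.Agent.Lib.Helper91.MinSp

open Matrix Cfsg.Agent.Lib.Helper13 Cfsg.Agent.Lib.Helper5 Cfsg.Agent.Lib.Helper14.MinSp

variable {F : Type*} [Field F] {m : ℕ}

section loc

variable {P : Type*} [Group P] [Finite P] (L : Loc m F P) (S : Subgroup P)

/-- [INV] -/
theorem Bb_invariant (w : Fin m ⊕ Fin m → F) (a : F) (t : Fˣ) (l : Matrix.symplecticGroup (Fin m) F)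
    (h : L.rho w a * L.tor t * L.eps l ∈ S) (y : Fin m ⊕ Fin m → F) :
    y ∈ L.Bb S ↔ (t : F) • (l.1 *ᵥ y) ∈ L.Bb S := by
  have ht : (t : F) ≠ 0 := t.ne_zero
  constructor
  · rintro ⟨b, hb⟩
    have h1 := S.mul_mem (S.mul_mem h hb) (S.inv_mem h)
    rw [dec_conj] at h1
    exact ⟨_, h1⟩
  · rintro ⟨b', hb'⟩
    refine ⟨((t : F) ^ 2)⁻¹ * (b' - 2 * Cfsg.sympForm m F ((t : F) • (l.1 *ᵥ y)) w), ?_⟩
    have h1 := dec_conj L w a t l y
      (((t : F) ^ 2)⁻¹ * (b' - 2 * Cfsg.sympForm m F ((t : F) • (l.1 *ᵥ y)) w))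
    have h2 : (t : F) ^ 2 * (((t : F) ^ 2)⁻¹ *
        (b' - 2 * Cfsg.sympForm m F ((t : F) • (l.1 *ᵥ y)) w)) +
        2 * Cfsg.sympForm m F ((t : F) • (l.1 *ᵥ y)) w = b' := by
      field_simp
      ring
    rw [h2] at h1
    have h3 := S.mul_mem (S.mul_mem (S.inv_mem h) hb') h
    rw [← h1] at h3
    have e : ∀ s r : P, s⁻¹ * (s * r * s⁻¹) * s = r := by intro s r; group
    rwa [e] at h3

/-- [INV] -/
theorem A_invariant (t : Fˣ) (ht : t ∈ L.Lam S) (a : F) :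
    a ∈ L.A S ↔ (t : F) ^ 2 * a ∈ L.A S := by
  obtain ⟨w, a₀, l, h⟩ := ht
  have h1 := dec_conj L w a₀ t l 0 a
  rw [Matrix.mulVec_zero, smul_zero, sympForm_zero_left, mul_zero, add_zero] at h1
  constructor
  · intro ha
    have h2 := S.mul_mem (S.mul_mem h ha) (S.inv_mem h)
    rw [h1] at h2
    exact h2
  · intro ha
    have h3 := S.mul_mem (S.mul_mem (S.inv_mem h) ha) h
    have ha' : L.rho 0 ((t : F) ^ 2 * a) ∈ S := ha
    have h3 := S.mul_mem (S.mul_mem (S.inv_mem h) ha') h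
    rw [← h1] at h3
    have e : ∀ s r : P, s⁻¹ * (s * r * s⁻¹) * s = r := by intro s r; group
    rwa [e] at h3

/-- [INV] -/
theorem two_form_mem_A (w w' : Fin m ⊕ Fin m → F) (hw : w ∈ L.Bb S) (hw' : w' ∈ L.Bb S) :
    2 * Cfsg.sympForm m F w w' ∈ L.A S := by
  obtain ⟨a, ha⟩ := hw
  obtain ⟨a', ha'⟩ := hw'
  have h1 := S.mul_mem (S.mul_mem ha' ha) (S.inv_mem ha')
  rw [rho_conj] at h1
  have h2 := S.mul_mem h1 (S.inv_mem ha)
  rw [L.rho_inv, L.rho_mul] at h2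
  have h3 : L.rho (w + -w) (a + 2 * Cfsg.sympForm m F w w' + -a + Cfsg.sympForm m F (-w) w)
      = L.rho 0 (2 * Cfsg.sympForm m F w w') := by
    refine rho_congr L (by abel) ?_
    rw [sympForm_neg_left, sympForm_self]; ring
  rw [h3] at h2
  exact h2

end loc

end Cfsg.Agent.Lib.Helper91.MinSp
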