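import Cfsg.Agent.Lib.Helper91.MinSp.LocBase

set_option autoImplicit false
set_option linter.unusedSectionVars false

/-! # MinSp farm (S2141), piece TORUS -/

namespace Cfsg.Agent.Lib.Helper91.MinSp

open Matrix Cfsg.Agent.Lib.Helper13 Cfsg.Agent.Lib.Helper5 Cfsg.Agent.Lib.Helper14.MinSp

variable {F : Type*} [Field F] {m : ℕ}

section loc

variable {P : Type*} [Group P] [Finite P] (L : Loc m F P) (S : Subgroup P)

/-- `ψ(ρ) = h ρ h⁻¹ ρ⁻¹` in coordinates -/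
theorem psi_rho (t : Fˣ) (w : Fin m ⊕ Fin m → F) (a : F) :
    L.tor t * L.rho w a * (L.tor t)⁻¹ * (L.rho w a)⁻¹
      = L.rho (((t : F) - 1) • w) (((t : F) ^ 2 - 1) * a) := by
  rw [tor_conj, L.rho_inv, L.rho_mul]
  refine rho_congr L (by module) ?_
  rw [sympForm_neg_left, sympForm_smul_right, sympForm_self]; ring

/-- the case `tor t ∈ S` -/
theorem torus0 (t : Fˣ) (ht : (t : F) ^ 2 ≠ 1) (hs : L.tor t ∈ S) :
    ∀ l ∈ L.S1 S, L.eps l ∈ S := by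
  have ht1 : (t : F) - 1 ≠ 0 := by
    intro h
    apply ht
    rw [sub_eq_zero.1 h, one_pow]
  have ht2 : (t : F) ^ 2 - 1 ≠ 0 := sub_ne_zero.2 ht
  -- `ψ` on `B = S ⊓ Q`
  let ψ : (S ⊓ Q L : Subgroup P) → (S ⊓ Q L : Subgroup P) := fun b =>
    ⟨L.tor t * b.1 * (L.tor t)⁻¹ * b.1⁻¹, by
      refine ⟨S.mul_mem (S.mul_mem (S.mul_mem hs b.2.1) (S.inv_mem hs)) (S.inv_mem b.2.1), ?_⟩
      obtain ⟨w, a, hb⟩ := b.2.2
      rw [hb, psi_rho]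
      exact rho_mem_Q L _ _⟩
  have hinjQ : ∀ w a w' a', L.tor t * L.rho w a * (L.tor t)⁻¹ * (L.rho w a)⁻¹
      = L.tor t * L.rho w' a' * (L.tor t)⁻¹ * (L.rho w' a')⁻¹ → L.rho w a = L.rho w' a' := by
    intro w a w' a' h
    rw [psi_rho, psi_rho] at h
    obtain ⟨h1, h2⟩ := rho_inj L h
    exact rho_congr L (smul_right_injective _ ht1 h1) (mul_left_cancel₀ ht2 h2)
  have hψinj : Function.Injective ψ := by
    intro b b' h
    obtain ⟨w, a, hb⟩ := b.2.2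
    obtain ⟨w', a', hb'⟩ := b'.2.2
    have h1 : L.tor t * b.1 * (L.tor t)⁻¹ * b.1⁻¹ = L.tor t * b'.1 * (L.tor t)⁻¹ * b'.1⁻¹ :=
      congrArg Subtype.val h
    rw [hb, hb'] at h1
    apply Subtype.ext
    rw [hb, hb']
    exact hinjQ _ _ _ _ h1
  have hψsurj : Function.Surjective ψ := Finite.injective_iff_surjective.1 hψinj
  rintro l ⟨y, b, hg⟩
  -- `ψ(ρ) ∈ B`
  have hcomm : L.tor t * L.eps l = L.eps l * L.tor t := L.tor_eps t l
  have h1 : L.tor t * L.rho y b * (L.tor t)⁻¹ * (L.rho y b)⁻¹ ∈ S := by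
    have h2 := S.mul_mem (S.mul_mem (S.mul_mem hs hg) (S.inv_mem hs)) (S.inv_mem hg)
    have e : L.tor t * (L.rho y b * L.eps l) * (L.tor t)⁻¹ * (L.rho y b * L.eps l)⁻¹
        = L.tor t * L.rho y b * (L.tor t)⁻¹ * (L.rho y b)⁻¹ := by
      have h3 : L.eps l * (L.tor t)⁻¹ * (L.eps l)⁻¹ = (L.tor t)⁻¹ := by
        have : (L.tor t)⁻¹ * L.eps l = L.eps l * (L.tor t)⁻¹ := by
          rw [inv_mul_eq_iff_eq_mul, ← mul_assoc, hcomm, mul_inv_cancel_right]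
        rw [← this, mul_inv_cancel_right]
      calc L.tor t * (L.rho y b * L.eps l) * (L.tor t)⁻¹ * (L.rho y b * L.eps l)⁻¹
          = L.tor t * L.rho y b * (L.eps l * (L.tor t)⁻¹ * (L.eps l)⁻¹) * (L.rho y b)⁻¹ := by group
        _ = _ := by rw [h3]
    rwa [e] at h2
  obtain ⟨b₀, hb₀⟩ := hψsurj ⟨_, h1, by rw [psi_rho]; exact rho_mem_Q L _ _⟩
  obtain ⟨w', a', hb'⟩ := b₀.2.2
  have h4 : L.tor t * b₀.1 * (L.tor t)⁻¹ * b₀.1⁻¹
      = L.tor t * L.rho y b * (L.tor t)⁻¹ * (L.rho y b)⁻¹ := congrArg Subtype.val hb₀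
  rw [hb'] at h4
  have h5 := hinjQ _ _ _ _ h4
  have h6 : L.rho y b ∈ S := by rw [← h5, ← hb']; exact b₀.2.1
  have h7 := S.mul_mem (S.inv_mem h6) hg
  rwa [inv_mul_cancel_left] at h7

/-- [TORUS] -/
theorem torus (t : Fˣ) (ht : (t : F) ^ 2 ≠ 1) (hs : ∃ w a, L.rho w a * L.tor t ∈ S) :
    ∃ x : P, ∀ l ∈ L.S1 S, x * L.eps l * x⁻¹ ∈ S := by
  obtain ⟨w, a, hs⟩ := hs
  have ht1 : 1 - (t : F) ≠ 0 := by
    intro h
    apply ht
    rw [← sub_eq_zero.1 h, one_pow]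
  have ht2 : 1 - (t : F) ^ 2 ≠ 0 := sub_ne_zero.2 (Ne.symm ht)
  refine ⟨L.rho ((1 - (t : F))⁻¹ • w) ((1 - (t : F) ^ 2)⁻¹ * a), ?_⟩
  intro l hl
  have hx : L.rho ((1 - (t : F))⁻¹ • w) ((1 - (t : F) ^ 2)⁻¹ * a) ∈ Q L := rho_mem_Q L _ _
  have h1 : L.tor t ∈ cj S (L.rho ((1 - (t : F))⁻¹ • w) ((1 - (t : F) ^ 2)⁻¹ * a)) := by
    rw [mem_cj]
    have e : ∀ (w' : Fin m ⊕ Fin m → F) (a' : F), L.rho w' a' * L.tor t * (L.rho w' a')⁻¹
        = L.rho ((1 - (t : F)) • w') ((1 - (t : F) ^ 2) * a') * L.tor t := by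
      intro w' a'
      rw [L.rho_inv, mul_assoc, L.tor_rho, ← mul_assoc, L.rho_mul]
      congr 1
      refine rho_congr L (by module) ?_
      rw [sympForm_smul_left, sympForm_neg_left, sympForm_self]; ring
    rw [e, smul_smul, mul_inv_cancel₀ ht1, one_smul, ← mul_assoc, mul_inv_cancel₀ ht2, one_mul]
    exact hs
  exact torus0 L _ t ht h1 l (S1_le_S1_cj L S hx hl)

/-- [TORUS] -/
theorem torus' (t : Fˣ) (ht : (t : F) ^ 2 ≠ 1) (w : Fin m ⊕ Fin m → F) (a : F)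
    (l : Matrix.symplecticGroup (Fin m) F) (hl : l ∈ L.S1 S)
    (hs : L.rho w a * L.tor t * L.eps l ∈ S) :
    ∃ x : P, ∀ l ∈ L.S1 S, x * L.eps l * x⁻¹ ∈ S := by
  obtain ⟨y, b, hg⟩ := hl
  apply torus L S t ht
  have h1 := S.mul_mem hs (S.inv_mem hg)
  have e : L.rho w a * L.tor t * L.eps l * (L.rho y b * L.eps l)⁻¹
      = L.rho w a * (L.tor t * (L.rho y b)⁻¹) := by group
  rw [e, L.rho_inv, L.tor_rho, ← mul_assoc, L.rho_mul] at h1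
  exact ⟨_, _, h1⟩

end loc

end Cfsg.Agent.Lib.Helper91.MinSp
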