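import Cfsg.Agent.Lib.Helper91.MinSp.LocBase
import Cfsg.Agent.Lib.Helper91.MinSp.INV

set_option autoImplicit false
set_option linter.unusedSectionVars false

/-! # MinSp farm (S2141), piece O2 -/

namespace Cfsg.Agent.Lib.Helper91.MinSp

open Matrix Cfsg.Agent.Lib.Helper13 Cfsg.Agent.Lib.Helper5 Cfsg.Agent.Lib.Helper14.MinSp
open scoped commutatorElement

variable {F : Type*} [Field F] {m : ℕ}

/-- `Sp` is transitive on non-zero vectors -/
theorem sp_trans {u u' : Fin m ⊕ Fin m → F} (hu : u ≠ 0) (hu' : u' ≠ 0) :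
    ∃ A : Matrix.symplecticGroup (Fin m) F, A.1 *ᵥ u = u' := by
  obtain ⟨A, -, hA⟩ := exists_tv_vec (⊤ : Submodule F (Fin m ⊕ Fin m → F))
    (fun u _ hu0 => by
      by_contra hcon
      push Not at hcon
      exact hu0 (sympForm_nondeg u (fun v => hcon v trivial)))
    (u := u) (u' := u') trivial trivial hu hu'
  exact ⟨A, hA⟩

section loc

variable {P : Type*} [Group P] (L : Loc m F P)

theorem ze_mul (b b' : F) (l l' : Matrix.symplecticGroup (Fin m) F) :
    L.rho 0 b * L.eps l * (L.rho 0 b' * L.eps l') = L.rho 0 (b + b') * L.eps (l * l') := by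
  have h := dec_mul L 0 b 1 l 0 b' 1 l'
  simp only [map_one, mul_one, Matrix.mulVec_zero, smul_zero, add_zero, sympForm_zero_left,
    Units.val_one, one_pow, one_mul] at h
  exact h

theorem ze_inv (b : F) (l : Matrix.symplecticGroup (Fin m) F) :
    (L.rho 0 b * L.eps l)⁻¹ = L.rho 0 (-b) * L.eps l⁻¹ := by
  rw [inv_eq_iff_mul_eq_one, ze_mul, add_neg_cancel, mul_inv_cancel, map_one, mul_one, L.rho_zero]

theorem ze_comm (b b' : F) (l l' : Matrix.symplecticGroup (Fin m) F) :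
    ⁅L.rho 0 b * L.eps l, L.rho 0 b' * L.eps l'⁆ = L.eps ⁅l, l'⁆ := by
  rw [commutatorElement_def, commutatorElement_def, ze_inv, ze_inv, ze_mul, ze_mul, ze_mul]
  have : b + b' + -b + -b' = 0 := by ring
  rw [this, L.rho_zero, one_mul]

end loc

section loc

variable {P : Type*} [Group P] [Finite P] (L : Loc m F P) (S : Subgroup P)

/-- [O2] -/
theorem S1_ne_top_odd [Fintype F] (h2 : (2 : F) ≠ 0) (hm : 1 ≤ m)
    (hexc : ¬ (m = 1 ∧ Fintype.card F = 3)) (hRF : L.RF S) : L.S1 S ≠ ⊤ := by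
  intro htop
  have hinv : ∀ (l : Matrix.symplecticGroup (Fin m) F) y, y ∈ L.Bb S → l.1 *ᵥ y ∈ L.Bb S := by
    intro l y hy
    obtain ⟨w, a, h⟩ : l ∈ L.S1 S := by rw [htop]; trivial
    have h1 := (Bb_invariant L S w a 1 l (by rwa [map_one, mul_one]) y).1 hy
    rwa [Units.val_one, one_smul] at h1
  have hBb : ∀ y ∈ L.Bb S, y = 0 := by
    intro y hy
    by_contra hy0
    have hall : ∀ u, u ∈ L.Bb S := by
      intro u
      by_cases hu : u = 0
      · rw [hu]; exact (L.Bb S).zero_mem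
      · obtain ⟨A, hA⟩ := sp_trans hy0 hu
        rw [← hA]; exact hinv A y hy
    obtain ⟨a, ha⟩ := hRF.1
    apply ha
    have h1 := two_form_mem_A L S ((a / 2) • eR ⟨0, hm⟩) (eL ⟨0, hm⟩) (hall _) (hall _)
    rw [sympForm_smul_left, sympForm_eL_right] at h1
    have h3 : (eR ⟨0, hm⟩ : Fin m ⊕ Fin m → F) (Sum.inr ⟨0, hm⟩) = 1 := by simp [eR]
    rw [h3, mul_one, mul_div_cancel₀ _ h2] at h1
    exact h1
  -- the central involution
  obtain ⟨j, hj⟩ : ∃ j : Matrix.symplecticGroup (Fin m) F, ∀ x, j.1 *ᵥ x = -x :=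
    ⟨⟨-1, SymplecticGroup.neg_mem (one_mem _)⟩, fun x => by
      rw [Matrix.neg_mulVec, Matrix.one_mulVec]⟩
  have hjc : ∀ l : Matrix.symplecticGroup (Fin m) F, j * l * j⁻¹ = l := by
    intro l
    rw [mul_inv_eq_iff_eq_mul]
    apply sp_ext
    intro x
    rw [sp_mul_mulVec, sp_mul_mulVec, hj, hj, Matrix.mulVec_neg]
  obtain ⟨w, a, hja⟩ : j ∈ L.S1 S := by rw [htop]; trivial
  obtain ⟨x, hx⟩ : ∃ x : P, x = L.rho ((2 : F)⁻¹ • w) 0 := ⟨_, rfl⟩
  have hxQ : x ∈ Q L := by rw [hx]; exact rho_mem_Q L _ _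
  have htop' : ∀ l, l ∈ L.S1 (cj S x) := by
    intro l
    apply S1_le_S1_cj L S hxQ
    rw [htop]; trivial
  have hBb' : ∀ y b, L.rho y b ∈ cj S x → y = 0 := by
    intro y b h
    rw [mem_cj, hx, rho_conj] at h
    exact hBb y ⟨_, h⟩
  obtain ⟨a'', hk⟩ : ∃ a'', L.rho 0 a'' * L.eps j ∈ cj S x := by
    obtain ⟨a'', h1⟩ : ∃ a'', x⁻¹ * L.rho w a * (L.eps j * x * (L.eps j)⁻¹) = L.rho 0 a'' := by
      rw [hx, eps_conj, L.rho_inv, L.rho_mul, L.rho_mul]
      refine ⟨_, rho_congr L ?_ rfl⟩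
      rw [hj]
      have : w = (2 : F)⁻¹ • w + (2 : F)⁻¹ • w := by
        rw [← add_smul, ← two_mul, mul_inv_cancel₀ h2, one_smul]
      nth_rewrite 2 [this]
      abel
    refine ⟨a'', ?_⟩
    rw [mem_cj, ← h1]
    have e : x * (x⁻¹ * L.rho w a * (L.eps j * x * (L.eps j)⁻¹) * L.eps j) * x⁻¹
        = L.rho w a * L.eps j := by group
    rw [e]; exact hja
  obtain ⟨k, hkdef⟩ : ∃ k : P, k = L.rho 0 a'' * L.eps j := ⟨_, rfl⟩
  rw [← hkdef] at hk
  have e1 : ∀ y b, k * L.rho y b * k⁻¹ = L.rho (-y) b := by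
    intro y b
    have h := dec_conj L 0 a'' 1 j y b
    rw [map_one, mul_one, ← hkdef] at h
    rw [h]
    refine rho_congr L ?_ ?_
    · rw [Units.val_one, one_smul, hj]
    · rw [sympForm_zero_right, Units.val_one]; ring
  have e2 : ∀ l, k * L.eps l * k⁻¹ = L.eps l := by
    intro l
    have h3 : L.rho 0 a'' * L.eps l = L.eps l * L.rho 0 a'' := by
      rw [L.eps_rho, Matrix.mulVec_zero]
    calc k * L.eps l * k⁻¹
        = L.rho 0 a'' * (L.eps j * L.eps l * (L.eps j)⁻¹) * (L.rho 0 a'')⁻¹ := by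
          rw [hkdef]; group
      _ = L.rho 0 a'' * L.eps l * (L.rho 0 a'')⁻¹ := by
          rw [← map_mul, ← map_inv, ← map_mul, hjc]
      _ = L.eps l := by rw [h3, mul_inv_cancel_right]
  have hy0 : ∀ y b l, L.rho y b * L.eps l ∈ cj S x → y = 0 := by
    intro y b l hg
    have h3 := (cj S x).mul_mem ((cj S x).mul_mem ((cj S x).mul_mem hk hg) ((cj S x).inv_mem hk))
      ((cj S x).inv_mem hg)
    have e : k * (L.rho y b * L.eps l) * k⁻¹ * (L.rho y b * L.eps l)⁻¹
        = L.rho (-y) b * (L.rho y b)⁻¹ := by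
      calc k * (L.rho y b * L.eps l) * k⁻¹ * (L.rho y b * L.eps l)⁻¹
          = (k * L.rho y b * k⁻¹) * (k * L.eps l * k⁻¹) * (L.eps l)⁻¹ * (L.rho y b)⁻¹ := by group
        _ = _ := by rw [e1, e2, mul_inv_cancel_right]
    rw [e, L.rho_inv, L.rho_mul] at h3
    have h4 := hBb' _ _ h3
    have h5 : (2 : F) • y = 0 := by
      rw [two_smul]
      have := congrArg Neg.neg h4
      simpa [add_comm] using this
    rcases smul_eq_zero.1 h5 with h | h
    · exact absurd h h2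
    · exact h
  have hz : ∀ l, ∃ b, L.rho 0 b * L.eps l ∈ cj S x := by
    intro l
    obtain ⟨y, b, hg⟩ := htop' l
    have := hy0 y b l hg
    subst this
    exact ⟨b, hg⟩
  -- perfectness
  have hq3 : 3 ≤ Fintype.card F := by
    have h1 : 1 < Fintype.card F := Fintype.one_lt_card
    by_contra hcon
    have h3 : Fintype.card F = 2 := by omega
    apply h2
    have := Nat.cast_card_eq_zero F
    rw [h3] at this
    exact_mod_cast this
  have hperf : commutator (Matrix.symplecticGroup (Fin m) F) = ⊤ := by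
    apply sp_commutator_eq_top
    by_cases h3 : 3 ≤ m
    · exact Or.inl h3
    · by_cases h4 : m = 2
      · exact Or.inr (Or.inl ⟨h4, hq3⟩)
      · have hm1 : m = 1 := by omega
        right; right
        have : Fintype.card F ≠ 3 := fun h => hexc ⟨hm1, h⟩
        omega
  have hE : (⊤ : Subgroup (Matrix.symplecticGroup (Fin m) F)) ≤ (cj S x).comap L.eps := by
    rw [← hperf, commutator_def, Subgroup.commutator_le]
    intro l _ l' _
    obtain ⟨b, hb⟩ := hz l
    obtain ⟨b', hb'⟩ := hz l'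
    rw [Subgroup.mem_comap, ← ze_comm L b b' l l', commutatorElement_def]
    exact (cj S x).mul_mem ((cj S x).mul_mem ((cj S x).mul_mem hb hb') ((cj S x).inv_mem hb))
      ((cj S x).inv_mem hb')
  obtain ⟨c, hc⟩ := hRF.2 x (eL ⟨0, hm⟩) (eL_ne_zero _)
  exact hc (hE (Subgroup.mem_top (tv (eL ⟨0, hm⟩) c)))

end loc

end Cfsg.Agent.Lib.Helper91.MinSp
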