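import Cfsg.Agent.Lib.Helper14.MinSp.Defs

set_option autoImplicit false
set_option linter.unusedSectionVars false

/-! # MinSp farm (S2141), piece LOC: the point stabiliser of `Sp_{2m+2}` is a `Loc` -/

namespace Cfsg.Agent.Lib.Helper91.MinSp

open Matrix Cfsg.Agent.Lib.Helper13 Cfsg.Agent.Lib.Helper5 Cfsg.Agent.Lib.Helper14.MinSp

variable {F : Type*} [Field F] {m : ℕ}

/-- the component in `⟨e, e'⟩^⊥` -/
def pr (x : Fin (m + 1) ⊕ Fin (m + 1) → F) : Fin m ⊕ Fin m → F :=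
  Sum.elim (fun j => x (Sum.inl j.succ)) (fun j => x (Sum.inr j.succ))

/-- the vector `iota w + α e + β e'` -/
def mk3 (w : Fin m ⊕ Fin m → F) (α β : F) : Fin (m + 1) ⊕ Fin (m + 1) → F :=
  Sum.elim (Fin.cases α (fun j => w (Sum.inl j))) (Fin.cases β (fun j => w (Sum.inr j)))

theorem pr_mk3 (w : Fin m ⊕ Fin m → F) (α β : F) : pr (mk3 w α β) = w := by
  ext (i | i) <;> simp [pr, mk3]

theorem mk3_inl0 (w : Fin m ⊕ Fin m → F) (α β : F) : mk3 w α β (Sum.inl 0) = α := rfl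

theorem mk3_inr0 (w : Fin m ⊕ Fin m → F) (α β : F) : mk3 w α β (Sum.inr 0) = β := rfl

theorem mk3_eta (x : Fin (m + 1) ⊕ Fin (m + 1) → F) :
    mk3 (pr x) (x (Sum.inl 0)) (x (Sum.inr 0)) = x := by
  ext (i | i) <;> refine Fin.cases ?_ (fun j => ?_) i <;> simp [mk3, pr]

theorem mk3_eq {w w' : Fin m ⊕ Fin m → F} {α α' β β' : F} (h1 : w = w') (h2 : α = α')
    (h3 : β = β') : mk3 w α β = mk3 w' α' β' := by
  subst h1 h2 h3; rfl

theorem mk3_inj {w w' : Fin m ⊕ Fin m → F} {α α' β β' : F} (h : mk3 w α β = mk3 w' α' β') :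
    w = w' ∧ α = α' ∧ β = β' := by
  refine ⟨?_, ?_, ?_⟩
  · rw [← pr_mk3 w α β, h, pr_mk3]
  · rw [← mk3_inl0 w α β, h, mk3_inl0]
  · rw [← mk3_inr0 w α β, h, mk3_inr0]

theorem mk3_add (w w' : Fin m ⊕ Fin m → F) (α α' β β' : F) :
    mk3 w α β + mk3 w' α' β' = mk3 (w + w') (α + α') (β + β') := by
  ext (i | i) <;> refine Fin.cases ?_ (fun j => ?_) i <;> simp [mk3]

theorem mk3_smul (c : F) (w : Fin m ⊕ Fin m → F) (α β : F) :
    c • mk3 w α β = mk3 (c • w) (c * α) (c * β) := by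
  ext (i | i) <;> refine Fin.cases ?_ (fun j => ?_) i <;> simp [mk3]

theorem pr_add (x y : Fin (m + 1) ⊕ Fin (m + 1) → F) : pr (x + y) = pr x + pr y := by
  ext (i | i) <;> simp [pr]

theorem pr_smul (c : F) (x : Fin (m + 1) ⊕ Fin (m + 1) → F) : pr (c • x) = c • pr x := by
  ext (i | i) <;> simp [pr]

theorem iota_eq (w : Fin m ⊕ Fin m → F) : iota w = mk3 w 0 0 := rfl

theorem eL_eq : (eL 0 : Fin (m + 1) ⊕ Fin (m + 1) → F) = mk3 0 1 0 := by
  ext (i | i) <;> refine Fin.cases ?_ (fun j => ?_) i <;> simp [mk3, eL]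

theorem eR_eq : (eR 0 : Fin (m + 1) ⊕ Fin (m + 1) → F) = mk3 0 0 1 := by
  ext (i | i) <;> refine Fin.cases ?_ (fun j => ?_) i <;> simp [mk3, eR]

theorem form_mk3 (w w' : Fin m ⊕ Fin m → F) (α α' β β' : F) :
    Cfsg.sympForm (m + 1) F (mk3 w α β) (mk3 w' α' β')
      = Cfsg.sympForm m F w w' + β * α' - α * β' := by
  rw [sympForm_eq_sum, sympForm_eq_sum, Fin.sum_univ_succ]
  simp only [mk3, Sum.elim_inl, Sum.elim_inr, Fin.cases_zero, Fin.cases_succ]
  ring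

theorem sp_ext3 {A B : Matrix.symplecticGroup (Fin (m + 1)) F}
    (h : ∀ w α β, A.1 *ᵥ mk3 w α β = B.1 *ᵥ mk3 w α β) : A = B := by
  apply sp_ext
  intro x
  rw [← mk3_eta x]
  exact h _ _ _

/-- an isometric linear map as an element of the symplectic group -/
def mkSp {k : ℕ} (T : (Fin k ⊕ Fin k → F) →ₗ[F] (Fin k ⊕ Fin k → F))
    (hT : ∀ u v, Cfsg.sympForm k F (T u) (T v) = Cfsg.sympForm k F u v) :
    Matrix.symplecticGroup (Fin k) F :=
  ⟨LinearMap.toMatrix' T, (mem_symplecticGroup_iff_preserves _).2 (by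
    intro u v
    rw [LinearMap.toMatrix'_mulVec, LinearMap.toMatrix'_mulVec]
    exact hT u v)⟩

theorem mkSp_mulVec {k : ℕ} (T : (Fin k ⊕ Fin k → F) →ₗ[F] (Fin k ⊕ Fin k → F))
    (hT : ∀ u v, Cfsg.sympForm k F (T u) (T v) = Cfsg.sympForm k F u v) (x : Fin k ⊕ Fin k → F) :
    (mkSp T hT).1 *ᵥ x = T x := LinearMap.toMatrix'_mulVec T x

/-- the Levi factor -/
def epsM (l : Matrix.symplecticGroup (Fin m) F) : Matrix.symplecticGroup (Fin (m + 1)) F :=
  mkSp
    { toFun := fun x => mk3 (l.1 *ᵥ pr x) (x (Sum.inl 0)) (x (Sum.inr 0))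
      map_add' := fun x y => by
        rw [mk3_add, pr_add, Matrix.mulVec_add]; rfl
      map_smul' := fun c x => by
        rw [mk3_smul, pr_smul, Matrix.mulVec_smul]; rfl }
    (by
      intro u v
      show Cfsg.sympForm (m + 1) F (mk3 _ _ _) (mk3 _ _ _) = _
      rw [form_mk3, Cfsg.Agent.Lib.Helper13.sp_preserves]
      conv_rhs => rw [← mk3_eta u, ← mk3_eta v, form_mk3])

theorem epsM_mulVec (l : Matrix.symplecticGroup (Fin m) F) (w : Fin m ⊕ Fin m → F) (α β : F) :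
    (epsM l).1 *ᵥ mk3 w α β = mk3 (l.1 *ᵥ w) α β := by
  unfold epsM
  rw [mkSp_mulVec]
  show mk3 (l.1 *ᵥ pr (mk3 w α β)) _ _ = _
  rw [pr_mk3]; rfl

/-- the torus -/
def torM (t : Fˣ) : Matrix.symplecticGroup (Fin (m + 1)) F :=
  mkSp
    { toFun := fun x => mk3 (pr x) ((t : F) * x (Sum.inl 0)) ((t : F)⁻¹ * x (Sum.inr 0))
      map_add' := fun x y => by
        rw [mk3_add, pr_add]
        exact mk3_eq rfl (mul_add _ _ _) (mul_add _ _ _)
      map_smul' := fun c x => by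
        rw [mk3_smul, pr_smul]
        refine mk3_eq rfl ?_ ?_
        · show (t : F) * (c * x (Sum.inl 0)) = c * ((t : F) * x (Sum.inl 0))
          ring
        · show (t : F)⁻¹ * (c * x (Sum.inr 0)) = c * ((t : F)⁻¹ * x (Sum.inr 0))
          ring }
    (by
      intro u v
      show Cfsg.sympForm (m + 1) F (mk3 _ _ _) (mk3 _ _ _) = _
      rw [form_mk3]
      conv_rhs => rw [← mk3_eta u, ← mk3_eta v, form_mk3]
      have ht : (t : F) ≠ 0 := t.ne_zero
      field_simp)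

theorem torM_mulVec (t : Fˣ) (w : Fin m ⊕ Fin m → F) (α β : F) :
    (torM t).1 *ᵥ mk3 w α β = mk3 w ((t : F) * α) ((t : F)⁻¹ * β) := by
  unfold torM
  rw [mkSp_mulVec]
  show mk3 (pr (mk3 w α β)) _ _ = _
  rw [pr_mk3]; rfl

theorem sieg_mulVec {k : ℕ} (u w : Fin k ⊕ Fin k → F) (huw : Cfsg.sympForm k F u w = 0) (a : F)
    (x : Fin k ⊕ Fin k → F) :
    (sieg u w a).1 *ᵥ x = x + Cfsg.sympForm k F x u • w + Cfsg.sympForm k F x w • u
      + (a * Cfsg.sympForm k F x u) • u := by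
  have hwu : Cfsg.sympForm k F w u = 0 := by rw [sympForm_swap, huw, neg_zero]
  unfold sieg
  rw [sp_mul_mulVec, sp_mul_mulVec, sp_mul_mulVec, tv_mulVec, tv_mulVec, tv_mulVec, tv_mulVec]
  simp only [sympForm_add_left, sympForm_add_right, sympForm_smul_left, sympForm_self, huw, hwu]
  module

theorem rhoM_mulVec (w₀ : Fin m ⊕ Fin m → F) (a : F) (w : Fin m ⊕ Fin m → F) (α β : F) :
    (sieg (eL 0) (iota w₀) a).1 *ᵥ mk3 w α β
      = mk3 (w + β • w₀) (α + Cfsg.sympForm m F w w₀ + a * β) β := by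
  rw [sieg_mulVec _ _ (by rw [eL_eq, iota_eq, form_mk3, sympForm_zero_left]; ring), eL_eq, iota_eq,
    form_mk3, form_mk3, sympForm_zero_right]
  simp only [mk3_smul, mk3_add]
  refine mk3_eq ?_ ?_ ?_
  · simp
  · ring
  · ring

theorem mem_Pe_of {g : Matrix.symplecticGroup (Fin (m + 1)) F} {c : F}
    (h : g.1 *ᵥ (eL 0) = c • (eL 0 : Fin (m + 1) ⊕ Fin (m + 1) → F)) : g ∈ Pe m F := by
  have hc : c ≠ 0 := by
    rintro rfl
    rw [zero_smul] at h
    have h1 := sp_inv_mulVec_mulVec g (eL 0)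
    rw [h, Matrix.mulVec_zero] at h1
    exact eL_ne_zero 0 h1.symm
  have hinv : (g⁻¹).1 *ᵥ (eL 0) = c⁻¹ • (eL 0 : Fin (m + 1) ⊕ Fin (m + 1) → F) := by
    have h1 := sp_inv_mulVec_mulVec g (eL 0)
    rw [h, Matrix.mulVec_smul] at h1
    conv_rhs => rw [← h1, smul_smul, inv_mul_cancel₀ hc, one_smul]
  intro v
  show v ∈ Submodule.span F {(eL 0 : Fin (m + 1) ⊕ Fin (m + 1) → F)} ↔
    g.1 *ᵥ v ∈ Submodule.span F {(eL 0 : Fin (m + 1) ⊕ Fin (m + 1) → F)}
  rw [Submodule.mem_span_singleton, Submodule.mem_span_singleton]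
  constructor
  · rintro ⟨a, rfl⟩
    exact ⟨a * c, by rw [Matrix.mulVec_smul, h, smul_smul]⟩
  · rintro ⟨a, ha⟩
    refine ⟨a * c⁻¹, ?_⟩
    rw [← sp_inv_mulVec_mulVec g v, ← ha, Matrix.mulVec_smul, hinv, smul_smul]

theorem exists_of_mem_Pe {g : Matrix.symplecticGroup (Fin (m + 1)) F} (hg : g ∈ Pe m F) :
    ∃ c : F, g.1 *ᵥ (eL 0) = c • (eL 0 : Fin (m + 1) ⊕ Fin (m + 1) → F) := by
  have h1 := (hg (eL 0)).1 (Submodule.mem_span_singleton_self _)
  obtain ⟨c, hc⟩ := Submodule.mem_span_singleton.1 h1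
  exact ⟨c, hc.symm⟩

theorem rhoM_mem (w : Fin m ⊕ Fin m → F) (a : F) : sieg (eL 0) (iota w) a ∈ Pe m F := by
  apply mem_Pe_of (c := 1)
  have h := rhoM_mulVec w a 0 1 0
  rw [← eL_eq] at h
  rw [h, one_smul, eL_eq]
  refine mk3_eq ?_ ?_ ?_
  · simp
  · rw [sympForm_zero_left]; ring
  · rfl

theorem epsM_mem (l : Matrix.symplecticGroup (Fin m) F) : epsM l ∈ Pe m F := by
  apply mem_Pe_of (c := 1)
  rw [eL_eq, epsM_mulVec, mk3_smul]
  refine mk3_eq ?_ ?_ ?_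
  · simp
  · ring
  · ring

theorem torM_mem (t : Fˣ) : (torM t : Matrix.symplecticGroup (Fin (m + 1)) F) ∈ Pe m F := by
  apply mem_Pe_of (c := (t : F))
  rw [eL_eq, torM_mulVec, mk3_smul]
  refine mk3_eq ?_ ?_ ?_
  · simp
  · ring
  · ring

theorem epsM_mul (l l' : Matrix.symplecticGroup (Fin m) F) : epsM (l * l') = epsM l * epsM l' := by
  apply sp_ext3
  intro w α β
  rw [sp_mul_mulVec, epsM_mulVec, epsM_mulVec, epsM_mulVec, sp_mul_mulVec]

theorem torM_mul (t t' : Fˣ) :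
    (torM (t * t') : Matrix.symplecticGroup (Fin (m + 1)) F) = torM t * torM t' := by
  apply sp_ext3
  intro w α β
  rw [sp_mul_mulVec, torM_mulVec, torM_mulVec, torM_mulVec]
  refine mk3_eq rfl ?_ ?_
  · rw [Units.val_mul]; ring
  · rw [Units.val_mul, _root_.mul_inv_rev]; ring

/-- the decomposition of an element of the point stabiliser -/
theorem exists_dec_aux (g : Matrix.symplecticGroup (Fin (m + 1)) F) (hg : g ∈ Pe m F) :
    ∃ (w : Fin m ⊕ Fin m → F) (a : F) (t : Fˣ) (l : Matrix.symplecticGroup (Fin m) F),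
      g = sieg (eL 0) (iota w) a * torM t * epsM l := by
  obtain ⟨c, hc⟩ := exists_of_mem_Pe hg
  have hc0 : c ≠ 0 := by
    rintro rfl
    rw [zero_smul] at hc
    have h1 := sp_inv_mulVec_mulVec g (eL 0)
    rw [hc, Matrix.mulVec_zero] at h1
    exact eL_ne_zero 0 h1.symm
  rw [eL_eq, mk3_smul, smul_zero, mul_one, mul_zero] at hc
  -- the image of `e'`
  obtain ⟨w₁, α₁, β₁, h1⟩ : ∃ w₁ α₁ β₁, g.1 *ᵥ mk3 0 0 1 = mk3 w₁ α₁ β₁ :=
    ⟨_, _, _, (mk3_eta _).symm⟩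
  have hβ₁ : β₁ = c⁻¹ := by
    have h2 := Cfsg.Agent.Lib.Helper13.sp_preserves g (mk3 0 0 1) (mk3 0 1 0)
    rw [h1, hc, form_mk3, form_mk3, sympForm_zero_right, sympForm_zero_right] at h2
    field_simp
    linear_combination h2
  -- the images of `iota y`
  have hβy : ∀ y, (g.1 *ᵥ mk3 y 0 0) (Sum.inr 0) = 0 := by
    intro y
    have h2 := Cfsg.Agent.Lib.Helper13.sp_preserves g (mk3 y 0 0) (mk3 0 1 0)
    rw [hc, ← mk3_eta (g.1 *ᵥ mk3 y 0 0), form_mk3, form_mk3, sympForm_zero_right,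
      sympForm_zero_right] at h2
    have h3 : (g.1 *ᵥ mk3 y 0 0) (Sum.inr 0) * c = 0 := by linear_combination h2
    rcases mul_eq_zero.1 h3 with h | h
    · exact h
    · exact absurd h hc0
  obtain ⟨T, hT⟩ : ∃ T : (Fin m ⊕ Fin m → F) →ₗ[F] (Fin m ⊕ Fin m → F),
      ∀ y, T y = pr (g.1 *ᵥ mk3 y 0 0) := by
    refine ⟨{ toFun := fun y => pr (g.1 *ᵥ mk3 y 0 0), map_add' := ?_, map_smul' := ?_ },
      fun y => rfl⟩
    · intro x y
      rw [← pr_add, ← Matrix.mulVec_add, mk3_add, add_zero]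
    · intro a x
      rw [RingHom.id_apply, ← pr_smul, ← Matrix.mulVec_smul, mk3_smul, mul_zero]
  have hTiso : ∀ u v, Cfsg.sympForm m F (T u) (T v) = Cfsg.sympForm m F u v := by
    intro u v
    have h2 := Cfsg.Agent.Lib.Helper13.sp_preserves g (mk3 u 0 0) (mk3 v 0 0)
    rw [← mk3_eta (g.1 *ᵥ mk3 u 0 0), ← mk3_eta (g.1 *ᵥ mk3 v 0 0), form_mk3, form_mk3, hβy, hβy,
      ← hT, ← hT] at h2
    linear_combination h2
  have hαy : ∀ y, (g.1 *ᵥ mk3 y 0 0) (Sum.inl 0) = c * Cfsg.sympForm m F (T y) w₁ := by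
    intro y
    have h2 := Cfsg.Agent.Lib.Helper13.sp_preserves g (mk3 y 0 0) (mk3 0 0 1)
    rw [h1, ← mk3_eta (g.1 *ᵥ mk3 y 0 0), form_mk3, form_mk3, hβy, ← hT, hβ₁,
      sympForm_zero_right] at h2
    field_simp at h2
    linear_combination -h2
  refine ⟨c • w₁, c * α₁, Units.mk0 c hc0, mkSp T hTiso, ?_⟩
  apply sp_ext3
  intro w α β
  rw [sp_mul_mulVec, sp_mul_mulVec, epsM_mulVec, torM_mulVec, rhoM_mulVec, mkSp_mulVec,
    Units.val_mk0]
  have hsplit : mk3 w α β = mk3 w 0 0 + α • mk3 0 1 0 + β • mk3 0 0 1 := by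
    simp only [mk3_smul, mk3_add]
    refine mk3_eq ?_ ?_ ?_
    · simp
    · ring
    · ring
  rw [hsplit, Matrix.mulVec_add, Matrix.mulVec_add, Matrix.mulVec_smul, Matrix.mulVec_smul, hc, h1,
    ← mk3_eta (g.1 *ᵥ mk3 w 0 0), hβy, hαy, ← hT, hβ₁]
  simp only [mk3_smul, mk3_add]
  refine mk3_eq ?_ ?_ ?_
  · rw [smul_zero, add_zero, smul_smul]
    congr 2
    field_simp
  · rw [sympForm_smul_right]
    field_simp
    ring
  · ring

/-- the `Loc` structure on the point stabiliser -/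
def locPe (m : ℕ) (F : Type*) [Field F] : Loc m F (Pe m F) where
  rho := fun w a => ⟨sieg (eL 0) (iota w) a, rhoM_mem w a⟩
  tor := MonoidHom.mk' (fun t => ⟨torM t, torM_mem t⟩) (fun t t' => Subtype.ext (torM_mul t t'))
  eps := MonoidHom.mk' (fun l => ⟨epsM l, epsM_mem l⟩) (fun l l' => Subtype.ext (epsM_mul l l'))
  rho_mul := by
    intro w a w' a'
    apply Subtype.ext
    show sieg (eL 0) (iota w) a * sieg (eL 0) (iota w') a' = sieg (eL 0) (iota (w + w')) _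
    apply sp_ext3
    intro x α β
    rw [sp_mul_mulVec, rhoM_mulVec, rhoM_mulVec, rhoM_mulVec]
    refine mk3_eq ?_ ?_ rfl
    · module
    · rw [sympForm_add_left, sympForm_add_right, sympForm_smul_left]; ring
  eps_rho := by
    intro l w a
    apply Subtype.ext
    show epsM l * sieg (eL 0) (iota w) a = sieg (eL 0) (iota (l.1 *ᵥ w)) a * epsM l
    apply sp_ext3
    intro x α β
    rw [sp_mul_mulVec, sp_mul_mulVec, rhoM_mulVec, epsM_mulVec, epsM_mulVec, rhoM_mulVec]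
    refine mk3_eq ?_ ?_ rfl
    · rw [Matrix.mulVec_add, Matrix.mulVec_smul]
    · rw [Cfsg.Agent.Lib.Helper13.sp_preserves]
  tor_rho := by
    intro t w a
    apply Subtype.ext
    show torM t * sieg (eL 0) (iota w) a
      = sieg (eL 0) (iota ((t : F) • w)) ((t : F) ^ 2 * a) * torM t
    apply sp_ext3
    intro x α β
    rw [sp_mul_mulVec, sp_mul_mulVec, rhoM_mulVec, torM_mulVec, torM_mulVec, rhoM_mulVec]
    have ht : (t : F) ≠ 0 := t.ne_zero
    refine mk3_eq ?_ ?_ rfl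
    · rw [smul_smul]
      congr 2
      field_simp
    · rw [sympForm_smul_right]
      field_simp
  tor_eps := by
    intro t l
    apply Subtype.ext
    show torM t * epsM l = epsM l * torM t
    apply sp_ext3
    intro x α β
    rw [sp_mul_mulVec, sp_mul_mulVec, epsM_mulVec, torM_mulVec, torM_mulVec, epsM_mulVec]
  exists_dec := by
    intro g
    obtain ⟨w, a, t, l, h⟩ := exists_dec_aux g.1 g.2
    exact ⟨w, a, t, l, Subtype.ext h⟩
  dec_inj := by
    intro w a t l h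
    have h' : sieg (eL 0) (iota w) a * torM t * epsM l
        = (1 : Matrix.symplecticGroup (Fin (m + 1)) F) := congrArg Subtype.val h
    have key : ∀ x α β, mk3 (l.1 *ᵥ x + ((t : F)⁻¹ * β) • w)
        ((t : F) * α + Cfsg.sympForm m F (l.1 *ᵥ x) w + a * ((t : F)⁻¹ * β)) ((t : F)⁻¹ * β)
        = mk3 x α β := by
      intro x α β
      have h1 : (sieg (eL 0) (iota w) a * torM t * epsM l).1 *ᵥ mk3 x α β = mk3 x α β := by
        rw [h']
        exact Matrix.one_mulVec _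
      rw [sp_mul_mulVec, sp_mul_mulVec, epsM_mulVec, torM_mulVec, rhoM_mulVec] at h1
      exact h1
    have ht : (t : F) ≠ 0 := t.ne_zero
    obtain ⟨-, k2, -⟩ := mk3_inj (key 0 1 0)
    have ht1 : (t : F) = 1 := by
      rw [Matrix.mulVec_zero, sympForm_zero_left] at k2
      linear_combination k2
    obtain ⟨k1, k2', -⟩ := mk3_inj (key 0 0 1)
    rw [Matrix.mulVec_zero, ht1] at k1 k2'
    have hw : w = 0 := by simpa using k1
    have ha : a = 0 := by
      rw [sympForm_zero_left] at k2'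
      linear_combination k2'
    refine ⟨hw, ha, Units.ext ht1, ?_⟩
    apply sp_ext
    intro x
    obtain ⟨k1', -, -⟩ := mk3_inj (key x 0 0)
    rw [mul_zero, zero_smul, add_zero] at k1'
    rw [k1']
    exact (Matrix.one_mulVec x).symm

/-- [LOC] -/
theorem exists_loc (m : ℕ) (F : Type*) [Field F] : ∃ L : Loc m F (Pe m F),
    (∀ w a, ((L.rho w a : Pe m F) : Matrix.symplecticGroup (Fin (m + 1)) F)
      = sieg (eL 0) (iota w) a) ∧
    (∀ w c, ((L.eps (tv w c) : Pe m F) : Matrix.symplecticGroup (Fin (m + 1)) F)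
      = tv (iota w) c) := by
  refine ⟨locPe m F, fun w a => rfl, fun w c => ?_⟩
  show epsM (tv w c) = tv (iota w) c
  apply sp_ext3
  intro x α β
  rw [epsM_mulVec, tv_mulVec, tv_mulVec, iota_eq, form_mk3, mk3_smul, mk3_add]
  refine mk3_eq ?_ ?_ ?_
  · congr 2
    ring
  · ring
  · ring

end Cfsg.Agent.Lib.Helper91.MinSp
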