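import Cfsg.Agent.Lib.Helper91.MinSp.LocBase

set_option autoImplicit false
set_option linter.unusedSectionVars false

/-! # MinSp farm (S2141), piece IDX -/

namespace Cfsg.Agent.Lib.Helper91.MinSp

open Matrix Cfsg.Agent.Lib.Helper13 Cfsg.Agent.Lib.Helper5 Cfsg.Agent.Lib.Helper14.MinSp

variable {F : Type*} [Field F] {m : ℕ}

theorem card_eq_map_mul {G H : Type*} [Group G] [Group H] (f : G →* H) (S : Subgroup G) :
    Nat.card S = Nat.card (S.map f) * Nat.card (S ⊓ f.ker : Subgroup G) := by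
  have h1 := Subgroup.card_mul_index (f.comp S.subtype).ker
  rw [Subgroup.index_ker] at h1
  have h2 : (f.comp S.subtype).range = S.map f := by
    rw [MonoidHom.range_comp, Subgroup.range_subtype]
  have h3 : (f.comp S.subtype).ker = (S ⊓ f.ker).subgroupOf S := by
    ext x
    rw [MonoidHom.mem_ker, Subgroup.mem_subgroupOf, Subgroup.mem_inf, MonoidHom.mem_ker]
    constructor
    · intro h; exact ⟨x.2, h⟩
    · intro h; exact h.2
  rw [h2, h3, Nat.card_congr (Subgroup.subgroupOfEquivOfLe (inf_le_left : S ⊓ f.ker ≤ S)).toEquiv]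
    at h1
  rw [← h1, mul_comm]

section loc

variable {P : Type*} [Group P] (L : Loc m F P)

/-- the parametrisation of `P` -/
def par (p : (Fin m ⊕ Fin m → F) × F × Fˣ × Matrix.symplecticGroup (Fin m) F) : P :=
  L.rho p.1 p.2.1 * L.tor p.2.2.1 * L.eps p.2.2.2

theorem par_bijective : Function.Bijective (par L) := by
  constructor
  · rintro ⟨w, a, t, l⟩ ⟨w', a', t', l'⟩ h
    have h : L.rho w a * L.tor t * L.eps l = L.rho w' a' * L.tor t' * L.eps l' := h
    have h1 : (L.rho w' a')⁻¹ * L.rho w a * L.tor t * L.eps l * (L.eps l')⁻¹ * (L.tor t')⁻¹ = 1 := by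
      calc (L.rho w' a')⁻¹ * L.rho w a * L.tor t * L.eps l * (L.eps l')⁻¹ * (L.tor t')⁻¹
          = (L.rho w' a')⁻¹ * (L.rho w a * L.tor t * L.eps l) * (L.eps l')⁻¹ * (L.tor t')⁻¹ := by
            group
        _ = 1 := by rw [h]; group
    have hc := L.tor_eps t'⁻¹ (l * l'⁻¹)
    have h2 : (L.rho w' a')⁻¹ * L.rho w a * L.tor (t * t'⁻¹) * L.eps (l * l'⁻¹) = 1 := by
      calc (L.rho w' a')⁻¹ * L.rho w a * L.tor (t * t'⁻¹) * L.eps (l * l'⁻¹)
          = (L.rho w' a')⁻¹ * L.rho w a * L.tor t * (L.tor t'⁻¹ * L.eps (l * l'⁻¹)) := by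
            rw [map_mul]; simp only [mul_assoc]
        _ = (L.rho w' a')⁻¹ * L.rho w a * L.tor t * L.eps l * (L.eps l')⁻¹ * (L.tor t')⁻¹ := by
            rw [hc, map_mul, map_inv, map_inv]; simp only [mul_assoc]
        _ = 1 := h1
    rw [L.rho_inv, L.rho_mul] at h2
    obtain ⟨e1, e2, e3, e4⟩ := L.dec_inj _ _ _ _ h2
    have hw : w = w' := by
      have : w - w' = 0 := by rw [← e1]; abel
      exact sub_eq_zero.1 this
    subst hw
    have ha : a = a' := by
      rw [sympForm_neg_right, sympForm_self] at e2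
      linear_combination e2
    have ht : t = t' := mul_inv_eq_one.1 e3
    have hl : l = l' := mul_inv_eq_one.1 e4
    subst ha ht hl
    rfl
  · intro g
    obtain ⟨w, a, t, l, rfl⟩ := L.exists_dec g
    exact ⟨(w, a, t, l), rfl⟩

/-- the parametrisation as an equivalence -/
noncomputable def parE : ((Fin m ⊕ Fin m → F) × F × Fˣ × Matrix.symplecticGroup (Fin m) F) ≃ P :=
  Equiv.ofBijective (par L) (par_bijective L)

theorem parE_symm (w : Fin m ⊕ Fin m → F) (a : F) (t : Fˣ)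
    (l : Matrix.symplecticGroup (Fin m) F) :
    (parE L).symm (L.rho w a * L.tor t * L.eps l) = (w, a, t, l) :=
  (parE L).symm_apply_apply (w, a, t, l)

/-- the torus component -/
noncomputable def tc : P →* Fˣ :=
  MonoidHom.mk' (fun g => ((parE L).symm g).2.2.1) (by
    intro g g'
    obtain ⟨w, a, t, l, rfl⟩ := L.exists_dec g
    obtain ⟨w', a', t', l', rfl⟩ := L.exists_dec g'
    rw [dec_mul, parE_symm, parE_symm, parE_symm])

/-- the Levi component -/
noncomputable def lc : P →* Matrix.symplecticGroup (Fin m) F :=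
  MonoidHom.mk' (fun g => ((parE L).symm g).2.2.2) (by
    intro g g'
    obtain ⟨w, a, t, l, rfl⟩ := L.exists_dec g
    obtain ⟨w', a', t', l', rfl⟩ := L.exists_dec g'
    rw [dec_mul, parE_symm, parE_symm, parE_symm])

theorem tc_dec (w : Fin m ⊕ Fin m → F) (a : F) (t : Fˣ) (l : Matrix.symplecticGroup (Fin m) F) :
    tc L (L.rho w a * L.tor t * L.eps l) = t := by
  show ((parE L).symm _).2.2.1 = t
  rw [parE_symm]

theorem lc_dec (w : Fin m ⊕ Fin m → F) (a : F) (t : Fˣ) (l : Matrix.symplecticGroup (Fin m) F) :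
    lc L (L.rho w a * L.tor t * L.eps l) = l := by
  show ((parE L).symm _).2.2.2 = l
  rw [parE_symm]

theorem mem_K {S : Subgroup P} {g : P} : g ∈ S ⊓ (tc L).ker ↔ g ∈ S ∧ tc L g = 1 := by
  rw [Subgroup.mem_inf, MonoidHom.mem_ker]

theorem mem_B {S : Subgroup P} {g : P} :
    g ∈ S ⊓ (tc L).ker ⊓ (lc L).ker ↔ (g ∈ S ∧ tc L g = 1) ∧ lc L g = 1 := by
  rw [Subgroup.mem_inf, MonoidHom.mem_ker, mem_K]

theorem map_tc (S : Subgroup P) : S.map (tc L) = L.Lam S := by
  ext t
  rw [Subgroup.mem_map]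
  constructor
  · rintro ⟨s, hs, rfl⟩
    obtain ⟨w, a, t, l, rfl⟩ := L.exists_dec s
    rw [tc_dec]
    exact ⟨w, a, l, hs⟩
  · rintro ⟨w, a, l, hs⟩
    exact ⟨_, hs, tc_dec L w a t l⟩

theorem map_lc (S : Subgroup P) : (S ⊓ (tc L).ker).map (lc L) = L.S1 S := by
  ext l
  rw [Subgroup.mem_map]
  constructor
  · rintro ⟨s, hsk, rfl⟩
    obtain ⟨hs, hk⟩ := (mem_K L).1 hsk
    obtain ⟨w, a, t, l, rfl⟩ := L.exists_dec s
    rw [tc_dec] at hk
    subst hk
    rw [lc_dec]
    rw [map_one, mul_one] at hs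
    exact ⟨w, a, hs⟩
  · rintro ⟨w, a, hs⟩
    have e : L.rho w a * L.eps l = L.rho w a * L.tor 1 * L.eps l := by rw [map_one, mul_one]
    refine ⟨_, (mem_K L).2 ⟨hs, ?_⟩, ?_⟩
    · rw [e, tc_dec]
    · rw [e, lc_dec]

theorem card_B (S : Subgroup P) :
    Nat.card (S ⊓ (tc L).ker ⊓ (lc L).ker : Subgroup P) = Nat.card (L.Bb S) * Nat.card (L.A S) := by
  classical
  have hch : ∀ w : L.Bb S, ∃ a, L.rho w.1 a ∈ S := fun w => w.2
  choose a₀ ha₀ using hch
  have erho : ∀ w a, L.rho w a = L.rho w a * L.tor 1 * L.eps 1 := by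
    intro w a; rw [map_one, map_one, mul_one, mul_one]
  have hmem : ∀ (w : L.Bb S) (c : L.A S), L.rho w.1 (c.1 + a₀ w) ∈ S := by
    intro w c
    have h1 := S.mul_mem c.2 (ha₀ w)
    rw [L.rho_mul, zero_add, sympForm_zero_right, add_zero] at h1
    exact h1
  let f : L.Bb S × L.A S → (S ⊓ (tc L).ker ⊓ (lc L).ker : Subgroup P) := fun p =>
    ⟨L.rho p.1.1 (p.2.1 + a₀ p.1), (mem_B L).2 ⟨⟨hmem p.1 p.2, by rw [erho, tc_dec]⟩, by
      rw [erho, lc_dec]⟩⟩
  have hf : Function.Bijective f := by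
    constructor
    · rintro ⟨w, c⟩ ⟨w', c'⟩ h
      have h1 : L.rho w.1 (c.1 + a₀ w) = L.rho w'.1 (c'.1 + a₀ w') := congrArg Subtype.val h
      obtain ⟨e1, e2⟩ := rho_inj L h1
      have hw : w = w' := Subtype.ext e1
      subst hw
      have hc : c = c' := Subtype.ext (add_right_cancel e2)
      subst hc
      rfl
    · rintro ⟨g, hg⟩
      obtain ⟨⟨hgS, hgt⟩, hgl⟩ := (mem_B L).1 hg
      obtain ⟨w, a, t, l, rfl⟩ := L.exists_dec g
      rw [tc_dec] at hgt
      rw [lc_dec] at hgl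
      subst hgt hgl
      have hgS' : L.rho w a ∈ S := by rw [erho]; exact hgS
      have hc : a - a₀ ⟨w, a, hgS'⟩ ∈ L.A S := by
        have h1 := S.mul_mem hgS' (S.inv_mem (ha₀ ⟨w, a, hgS'⟩))
        rw [L.rho_inv, L.rho_mul] at h1
        have e : L.rho (w + -w) (a + -a₀ ⟨w, a, hgS'⟩ + Cfsg.sympForm m F (-w) w)
            = L.rho 0 (a - a₀ ⟨w, a, hgS'⟩) := by
          refine rho_congr L (by abel) ?_
          rw [sympForm_neg_left, sympForm_self]; ring
        rw [e] at h1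
        exact h1
      refine ⟨(⟨w, a, hgS'⟩, ⟨_, hc⟩), Subtype.ext ?_⟩
      show L.rho w (a - a₀ ⟨w, a, hgS'⟩ + a₀ ⟨w, a, hgS'⟩) = _
      rw [sub_add_cancel]
      exact erho w a
  rw [← Nat.card_congr (Equiv.ofBijective f hf), Nat.card_prod]

end loc

section loc

variable {P : Type*} [Group P] [Finite P] (L : Loc m F P) (S : Subgroup P)

/-- [IDX] -/
theorem index_formula [Fintype F] :
    S.index * (Nat.card (L.Bb S) * Nat.card (L.A S) * Nat.card (L.Lam S))
      = Fintype.card F ^ (2 * m + 1) * (Fintype.card F - 1) * (L.S1 S).index := by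
  classical
  have hS : Nat.card S = Nat.card (L.Lam S) * (Nat.card (L.S1 S) *
      (Nat.card (L.Bb S) * Nat.card (L.A S))) := by
    rw [card_eq_map_mul (tc L) S, map_tc, card_eq_map_mul (lc L) (S ⊓ (tc L).ker), map_lc, card_B]
  have hP : Nat.card P = Fintype.card F ^ (2 * m) * (Fintype.card F * ((Fintype.card F - 1) *
      Nat.card (Matrix.symplecticGroup (Fin m) F))) := by
    rw [← Nat.card_congr (parE L), Nat.card_prod, Nat.card_prod, Nat.card_prod,
      Nat.card_eq_fintype_card (α := Fin m ⊕ Fin m → F), Fintype.card_fun, Fintype.card_sum,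
      Fintype.card_fin, Nat.card_eq_fintype_card (α := F), Nat.card_eq_fintype_card (α := Fˣ),
      Fintype.card_units, two_mul]
  have h1 := S.index_mul_card
  have h2 := (L.S1 S).index_mul_card
  have hpos : 0 < Nat.card (L.S1 S) := Nat.card_pos
  apply Nat.eq_of_mul_eq_mul_right hpos
  calc S.index * (Nat.card (L.Bb S) * Nat.card (L.A S) * Nat.card (L.Lam S)) * Nat.card (L.S1 S)
      = S.index * Nat.card S := by rw [hS]; ring
    _ = Nat.card P := h1
    _ = Fintype.card F ^ (2 * m) * (Fintype.card F * ((Fintype.card F - 1) *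
          ((L.S1 S).index * Nat.card (L.S1 S)))) := by rw [hP, h2]
    _ = _ := by rw [pow_succ]; ring

end loc

end Cfsg.Agent.Lib.Helper91.MinSp
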