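import Cfsg.Agent.Lib.Helper14.MinSp.Defs

set_option autoImplicit false
set_option linter.unusedSectionVars false

/-! # MinSp farm (S2141): calculus in a `Loc` -/

namespace Cfsg.Agent.Lib.Helper91.MinSp

open Matrix Cfsg.Agent.Lib.Helper13 Cfsg.Agent.Lib.Helper5 Cfsg.Agent.Lib.Helper14.MinSp

variable {F : Type*} [Field F] {m : ℕ} {P : Type*} [Group P] (L : Loc m F P)

theorem rho_congr {w w' : Fin m ⊕ Fin m → F} {a a' : F} (h1 : w = w') (h2 : a = a') :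
    L.rho w a = L.rho w' a' := by subst h1 h2; rfl

theorem tor_conj (t : Fˣ) (w : Fin m ⊕ Fin m → F) (a : F) :
    L.tor t * L.rho w a * (L.tor t)⁻¹ = L.rho ((t : F) • w) ((t : F) ^ 2 * a) := by
  rw [L.tor_rho, mul_inv_cancel_right]

theorem eps_conj (l : Matrix.symplecticGroup (Fin m) F) (w : Fin m ⊕ Fin m → F) (a : F) :
    L.eps l * L.rho w a * (L.eps l)⁻¹ = L.rho (l.1 *ᵥ w) a := by
  rw [L.eps_rho, mul_inv_cancel_right]

theorem rho_conj (w : Fin m ⊕ Fin m → F) (a : F) (y : Fin m ⊕ Fin m → F) (b : F) :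
    L.rho w a * L.rho y b * (L.rho w a)⁻¹ = L.rho y (b + 2 * Cfsg.sympForm m F y w) := by
  rw [L.rho_inv, L.rho_mul, L.rho_mul]
  refine rho_congr L (by abel) ?_
  rw [sympForm_neg_left, sympForm_add_right, sympForm_self, sympForm_swap w y]
  ring

theorem dec_conj (w : Fin m ⊕ Fin m → F) (a : F) (t : Fˣ) (l : Matrix.symplecticGroup (Fin m) F)
    (y : Fin m ⊕ Fin m → F) (b : F) :
    (L.rho w a * L.tor t * L.eps l) * L.rho y b * (L.rho w a * L.tor t * L.eps l)⁻¹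
      = L.rho ((t : F) • (l.1 *ᵥ y))
          ((t : F) ^ 2 * b + 2 * Cfsg.sympForm m F ((t : F) • (l.1 *ᵥ y)) w) := by
  rw [← rho_conj L w a, ← tor_conj, ← eps_conj]
  group

theorem rho_inj {w w' : Fin m ⊕ Fin m → F} {a a' : F} (h : L.rho w a = L.rho w' a') :
    w = w' ∧ a = a' := by
  have h1 : L.rho w a * (L.rho w' a')⁻¹ = 1 := by rw [h, mul_inv_cancel]
  rw [L.rho_inv, L.rho_mul] at h1
  have h2 := L.dec_inj (w + -w') (a + -a' + Cfsg.sympForm m F (-w') w) 1 1 (by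
    rw [map_one, map_one, mul_one, mul_one]; exact h1)
  have hw : w = w' := by
    have := h2.1
    rwa [← sub_eq_add_neg, sub_eq_zero] at this
  refine ⟨hw, ?_⟩
  have h3 := h2.2.1
  rw [hw, sympForm_neg_left, sympForm_self] at h3
  linear_combination h3

/-- the multiplication law -/
theorem dec_mul (w : Fin m ⊕ Fin m → F) (a : F) (t : Fˣ) (l : Matrix.symplecticGroup (Fin m) F)
    (w' : Fin m ⊕ Fin m → F) (a' : F) (t' : Fˣ) (l' : Matrix.symplecticGroup (Fin m) F) :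
    L.rho w a * L.tor t * L.eps l * (L.rho w' a' * L.tor t' * L.eps l')
      = L.rho (w + (t : F) • (l.1 *ᵥ w'))
          (a + (t : F) ^ 2 * a' + Cfsg.sympForm m F ((t : F) • (l.1 *ᵥ w')) w) *
        L.tor (t * t') * L.eps (l * l') := by
  rw [← L.rho_mul, ← tor_conj, ← eps_conj, map_mul, map_mul]
  have hc : (L.eps l)⁻¹ * L.tor t' * L.eps l = L.tor t' := by
    rw [mul_assoc, L.tor_eps, inv_mul_cancel_left]
  symm
  calc L.rho w a * (L.tor t * (L.eps l * L.rho w' a' * (L.eps l)⁻¹) * (L.tor t)⁻¹) *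
        (L.tor t * L.tor t') * (L.eps l * L.eps l')
      = L.rho w a * L.tor t * L.eps l * L.rho w' a' * ((L.eps l)⁻¹ * L.tor t' * L.eps l) *
          L.eps l' := by group
    _ = _ := by rw [hc]; simp only [mul_assoc]

/-- the subgroup `Q` of all `rho w a` -/
def Q : Subgroup P where
  carrier := {g | ∃ w a, g = L.rho w a}
  one_mem' := ⟨0, 0, L.rho_zero.symm⟩
  mul_mem' := by
    rintro _ _ ⟨w, a, rfl⟩ ⟨w', a', rfl⟩
    exact ⟨_, _, L.rho_mul _ _ _ _⟩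
  inv_mem' := by
    rintro _ ⟨w, a, rfl⟩
    exact ⟨_, _, L.rho_inv _ _⟩

theorem rho_mem_Q (w : Fin m ⊕ Fin m → F) (a : F) : L.rho w a ∈ Q L := ⟨w, a, rfl⟩

theorem eps_conj_mem_Q (l : Matrix.symplecticGroup (Fin m) F) {g : P} (hg : g ∈ Q L) :
    L.eps l * g * (L.eps l)⁻¹ ∈ Q L := by
  obtain ⟨w, a, rfl⟩ := hg
  exact ⟨_, _, eps_conj L l w a⟩

/-- `x⁻¹ S x` -/
def cj (S : Subgroup P) (x : P) : Subgroup P := S.comap (MulAut.conj x).toMonoidHom

theorem mem_cj {S : Subgroup P} {x g : P} : g ∈ cj S x ↔ x * g * x⁻¹ ∈ S := Iff.rfl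

/-- `S₁` does not change under conjugation by an element of `Q` -/
theorem S1_le_S1_cj (S : Subgroup P) {x : P} (hx : x ∈ Q L) : L.S1 S ≤ L.S1 (cj S x) := by
  rintro l ⟨y, b, h⟩
  have h1 : x⁻¹ * L.rho y b * (L.eps l * x * (L.eps l)⁻¹) ∈ Q L :=
    (Q L).mul_mem ((Q L).mul_mem ((Q L).inv_mem hx) (rho_mem_Q L y b)) (eps_conj_mem_Q L l hx)
  obtain ⟨y', b', h2⟩ := h1
  refine ⟨y', b', ?_⟩
  rw [mem_cj, ← h2]
  have e : x * (x⁻¹ * L.rho y b * (L.eps l * x * (L.eps l)⁻¹) * L.eps l) * x⁻¹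
      = L.rho y b * L.eps l := by group
  rw [e]; exact h

end Cfsg.Agent.Lib.Helper91.MinSp
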